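import Mathlib
import Cfsg.Agent.Asch.FormSubOdd

set_option autoImplicit false
set_option linter.unusedSectionVars false

/-!
Class 5 in odd dimension and odd characteristic: the multiple of the form can be taken to be one.
-/

namespace Cfsg.Agent.OrthOdd

open Module Cfsg.Geo Cfsg.Agent.Asch
open scoped Matrix

variable {ι : Type} [Fintype ι] [DecidableEq ι] {F : Type*} [Field F]

/-- a rational structure for a multiple of the form gives one for the form itself -/
theorem exists_rational_one [Fintype F] (hodd : Odd (Fintype.card F)) (hι : Odd (Fintype.card ι))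
    {Q : (ι → F) → F} (hQ : IsNondegenerateQuadraticForm Q)
    (hrat : ∀ (F₁ : Subfield F) (u : ι → F), RatVec F₁ u → Q u ∈ F₁)
    {F₁ : Subfield F} {r : ℕ} (hr : r.Prime) (hcard : Fintype.card F = Nat.card F₁ ^ r)
    {P : Matrix.GeneralLinearGroup ι F} {ζ : F} (h0 : ζ ≠ 0)
    (h1 : IsQuadFormRationalStructure (fun v => ζ * Q v) F₁ P) :
    ∃ P' : Matrix.GeneralLinearGroup ι F, IsQuadFormRationalStructure Q F₁ P' ∧
      subfieldSubgroup F₁ P' = subfieldSubgroup F₁ P := by
  classical
  rw [← Nat.card_eq_fintype_card] at hcard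
  have hF : ringChar F ≠ 2 := by
    intro h
    have := FiniteField.even_card_of_char_two h
    rw [Nat.odd_iff] at hodd
    omega
  suffices h : ∃ (s : F) (μ : Fˣ), s ∈ F₁ ∧ s ≠ 0 ∧ ζ = s * (μ : F) ^ 2 by
    obtain ⟨s, μ, hs, hs0, hζ⟩ := h
    exact ⟨scGL ι F μ * P, rational_rescale hQ hs hs0 hζ h1, subfieldSubgroup_scGL _ _ _⟩
  by_cases hsq : IsSquare ζ
  · obtain ⟨b, hb⟩ := hsq
    have hb0 : b ≠ 0 := by rintro rfl; rw [mul_zero] at hb; exact h0 hb
    exact ⟨1, Units.mk0 b hb0, F₁.one_mem, one_ne_zero, by rw [one_mul, Units.val_mk0, pow_two, hb]⟩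
  · rcases hr.eq_two_or_odd' with h2 | h2
    · exfalso
      subst h2
      apply hsq
      have hf := hQ.polar_bilinear
      -- the discriminants
      have hd1 : (gramMatrix (fun u v => ζ * QuadraticMap.polar Q ((P : Matrix ι ι F) *ᵥ u) ((P : Matrix ι ι F) *ᵥ v))).det ∈ F₁ := by
        apply det_mem_subfield
        intro i j
        show ζ * QuadraticMap.polar Q ((P : Matrix ι ι F) *ᵥ (Pi.single i 1)) ((P : Matrix ι ι F) *ᵥ (Pi.single j 1)) ∈ F₁
        rw [QuadraticMap.polar, ← Matrix.mulVec_add, mul_sub, mul_sub]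
        exact F₁.sub_mem (F₁.sub_mem (h1 _ (RatVec.add (ratVec_single F₁ i) (ratVec_single F₁ j))) (h1 _ (ratVec_single F₁ i)))
          (h1 _ (ratVec_single F₁ j))
      have hd2 : (gramMatrix (QuadraticMap.polar Q)).det ∈ F₁ := by
        apply det_mem_subfield
        intro i j
        show QuadraticMap.polar Q (Pi.single i 1) (Pi.single j 1) ∈ F₁
        rw [QuadraticMap.polar]
        exact F₁.sub_mem (F₁.sub_mem (hrat _ _ (RatVec.add (ratVec_single F₁ i) (ratVec_single F₁ j))) (hrat _ _ (ratVec_single F₁ i)))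
          (hrat _ _ (ratVec_single F₁ j))
      have hd0 : (gramMatrix (QuadraticMap.polar Q)).det ≠ 0 :=
        (isSesq_of_bilinear hf).gram_det_ne_zero (fun v hv => (hQ.nondegenerate v hv).2)
      obtain ⟨a, ha⟩ := isSquare_of_index_two hodd hcard hd1
      obtain ⟨b, hb⟩ := isSquare_of_index_two hodd hcard hd2
      rw [gram_pull hf, Matrix.det_smul, Matrix.det_mul, Matrix.det_mul, Matrix.det_transpose, hb] at ha
      have hP : (P : Matrix ι ι F).det ≠ 0 := Matrix.GeneralLinearGroup.det_ne_zero P
      have hb0 : b ≠ 0 := by rintro rfl; rw [mul_zero] at hb; exact hd0 hb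
      obtain ⟨k, hk⟩ := hι
      rw [hk] at ha
      refine ⟨a / (ζ ^ k * (P : Matrix ι ι F).det * b), ?_⟩
      field_simp
      linear_combination ha
    · obtain ⟨s, hs, hs1⟩ := exists_nonsquare_odd_index hodd h2 hcard
      have hs0 : s ≠ 0 := by rintro rfl; exact hs1 ⟨0, by simp⟩
      have h3 : IsSquare (ζ / s) := by
        by_contra hcon
        have e1 := (FiniteField.isSquare_iff hF (div_ne_zero h0 hs0)).not.1 hcon
        have e2 := (FiniteField.isSquare_iff hF h0).not.1 hsq
        have e3 := (FiniteField.isSquare_iff hF hs0).not.1 hs1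
        have f2 := (FiniteField.pow_dichotomy hF h0).resolve_left e2
        have f3 := (FiniteField.pow_dichotomy hF hs0).resolve_left e3
        apply e1
        rw [div_pow, f2, f3]
        norm_num
      obtain ⟨b, hb⟩ := h3
      have hb0 : b ≠ 0 := by
        rintro rfl
        rw [mul_zero, div_eq_zero_iff] at hb
        rcases hb with hb | hb
        · exact h0 hb
        · exact hs0 hb
      refine ⟨s, Units.mk0 b hb0, hs, hs0, ?_⟩
      rw [Units.val_mk0, pow_two, ← hb]
      field_simp

end Cfsg.Agent.OrthOdd
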