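import Mathlib
import Cfsg.Agent.AschCases.OrthOdd.Rational
import Cfsg.Agent.AschCases.OrthNot
import Cfsg.Agent.AschCases.FieldSub
import Cfsg.Agent.OCase.FrameEx

set_option autoImplicit false
set_option linter.unusedSectionVars false

/-!
Maximal subgroups of `Ω` in odd dimension from the structure theorem.
-/

namespace Cfsg.Agent.OrthOdd

open QuadraticMap Module Cfsg.Geo Cfsg.Agent.Asch Cfsg.Agent.Orth Cfsg.Agent.OCase
open scoped Matrix

variable {ι : Type} [Fintype ι] [DecidableEq ι] {F : Type*} [Field F] [Fintype F]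

theorem eq_inf {G : Type*} [Group G] {K H M : Subgroup G} (hH : IsMaximalIn K H) (hM : H ≤ M)
    (hK : ¬ K ≤ M) : H = M ⊓ K := by
  rcases hH.2 (M ⊓ K) (le_inf hM hH.1.le) inf_le_right with h | h
  · exact h.symm
  · exact absurd (inf_eq_right.mp h) hK

variable {Q : QuadraticForm F (ι → F)} {H : Subgroup (Matrix.GeneralLinearGroup ι F)}

/-- the stabiliser of a non-degenerate subspace is the stabiliser of its perpendicular space -/
theorem stab_perp (hQ : (polarBilin Q).Nondegenerate) (W : Submodule F (ι → F)) :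
    subspaceStabilizer (perp Q W) ⊓ omegaGL ⇑Q = subspaceStabilizer W ⊓ omegaGL ⇑Q := by
  apply le_antisymm
  · refine le_inf ((inf_omegaGL_le_iff Q _ _).2 fun h _ hM => ?_) inf_le_right
    rw [toGL_mem_subspaceStabilizer] at hM ⊢
    exact (map_perp_eq_iff hQ).1 hM
  · refine le_inf ((inf_omegaGL_le_iff Q _ _).2 fun h _ hM => ?_) inf_le_right
    rw [toGL_mem_subspaceStabilizer] at hM ⊢
    exact (map_perp_eq_iff hQ).2 hM

/-- the class 1 clause for non-degenerate subspaces -/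
def SubEven (Q : (ι → F) → F) (H : Subgroup (Matrix.GeneralLinearGroup ι F)) : Prop :=
  ∃ W : Submodule F (ι → F), W ≠ ⊥ ∧ Even (finrank F W) ∧ IsNondegenerateOn (QuadraticMap.polar Q) W ∧
    ¬ (Fintype.card F = 3 ∧ finrank F W = 2 ∧ IsPlusTypeOn Q W) ∧ H = subspaceStabilizer W ⊓ omegaGL Q

theorem sub_even (hQ : (polarBilin Q).Nondegenerate) (hodd : Odd (Fintype.card F)) (hn : 7 ≤ Fintype.card ι)
    (ho : Odd (Fintype.card ι)) (hH : IsMaximalIn (omegaGL ⇑Q) H) {W : Submodule F (ι → F)} (h0 : W ≠ ⊥)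
    (h1 : W ≠ ⊤) (hW : IsNondegenerateOn (polar ⇑Q) W) (hHW : H = subspaceStabilizer W ⊓ omegaGL ⇑Q) :
    SubEven ⇑Q H := by
  have hfin : finrank F (ι → F) = Fintype.card ι := finrank_fintype_fun_eq_card F
  have h2 : (2 : F) ≠ 0 := AschCases.two_ne_zero_of_odd_card hodd
  obtain ⟨W₁, a0, a1, a2, a3⟩ : ∃ W₁ : Submodule F (ι → F), W₁ ≠ ⊥ ∧ Even (finrank F W₁) ∧
      IsNondegenerateOn (polar ⇑Q) W₁ ∧ H = subspaceStabilizer W₁ ⊓ omegaGL ⇑Q := by
    rcases Nat.even_or_odd (finrank F W) with he | he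
    · exact ⟨W, h0, he, hW, hHW⟩
    · have hp := finrank_perp hQ W
      rw [hfin] at hp
      refine ⟨perp Q W, ?_, ?_, ?_, by rw [stab_perp hQ]; exact hHW⟩
      · intro hb
        have := perp_perp hQ W
        rw [hb] at this
        apply h1
        rw [← this, eq_top_iff]
        intro x _ y hy
        change polar Q y x = 0
        rw [(Submodule.mem_bot F).1 hy, polar_zero_left]
      · rw [← hp] at ho
        rcases Nat.even_or_odd (finrank F ↥(perp Q W)) with h | h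
        · exact h
        · exact absurd ho (Nat.not_odd_iff_even.2 (h.add_odd he))
      · rw [isNondegenerateOn_iff] at hW ⊢
        exact perp_inf_eq_bot hQ hW
  by_cases hbad : Fintype.card F = 3 ∧ finrank F W₁ = 2 ∧ IsPlusTypeOn (⇑Q) W₁
  · obtain ⟨b1, b2, b3⟩ := hbad
    obtain ⟨v, hv, hv1, hle⟩ := plane_le (le_of_eq b1) b2 a2 b3
    have hv0 : v ≠ 0 := by
      rintro rfl
      rw [QuadraticMap.map_zero] at hv1
      exact zero_ne_one hv1
    have hspan : finrank F (Submodule.span F {v}) = 1 := finrank_span_singleton hv0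
    have hH' : H = subspaceStabilizer (Submodule.span F {v}) ⊓ omegaGL ⇑Q := by
      refine eq_inf hH (by rw [a3]; exact hle) (not_omegaGL_le_subspaceStabilizer hQ hn ?_ ?_)
      · intro h
        rw [h, finrank_bot] at hspan
        exact zero_ne_one hspan
      · intro h
        rw [h, finrank_top, hfin] at hspan
        omega
    have hp := finrank_perp hQ (Submodule.span F {v})
    rw [hfin, hspan] at hp
    refine ⟨perp Q (Submodule.span F {v}), ?_, ?_, ?_, ?_, by rw [stab_perp hQ]; exact hH'⟩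
    · intro hb
      rw [hb, finrank_bot] at hp
      omega
    · rw [← hp] at ho
      rcases Nat.even_or_odd (finrank F ↥(perp Q (Submodule.span F {v}))) with h | h
      · exact h
      · exact absurd ho (Nat.not_odd_iff_even.2 (h.add_odd odd_one))
    · rw [isNondegenerateOn_iff]
      apply perp_inf_eq_bot hQ
      rw [eq_bot_iff]
      rintro x ⟨hx, hx'⟩
      obtain ⟨a, rfl⟩ := Submodule.mem_span_singleton.1 hx
      have h3 := hx' v (Submodule.mem_span_singleton_self v)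
      change polar Q v (a • v) = 0 at h3
      rw [psr, pself, hv1, mul_one] at h3
      rw [(mul_eq_zero.1 h3).resolve_right h2, zero_smul]
      exact Submodule.zero_mem _
    · rintro ⟨-, h3, -⟩
      omega
  · exact ⟨W₁, a0, a1, a2, hbad, a3⟩

/-- decompositions into members of dimension three over the field with three elements -/
theorem three_spaces (hQ : (polarBilin Q).Nondegenerate) (hn : 7 ≤ Fintype.card ι) (hq : Fintype.card F = 3)
    (hH : IsMaximalIn (omegaGL ⇑Q) H) {t : ℕ} {D : Fin t → Submodule F (ι → F)}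
    (hD : IsOrthogonalMDecomposition (⇑Q) 3 D) (hHD : H = decompositionStabilizer D ⊓ omegaGL ⇑Q) {N : ℕ}
    (hN : N = t * 3) :
    ∃ D' : Fin N → Submodule F (ι → F), IsOrthogonalMDecomposition (⇑Q) 1 D' ∧
      H = decompositionStabilizer D' ⊓ omegaGL ⇑Q := by
  obtain ⟨c, u, hu⟩ := exists_frame_three_three hq hD
  subst hN
  have h2 := two_ne_zero_three hq
  refine ⟨frameDecomp u (finProdFinEquiv (m := t) (n := 3)).symm, hu.isOrthogonalMDecomposition h2 hD _,
    eq_inf hH (by rw [hHD]; exact hu.stab_le h2 hD _) ?_⟩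
  exact not_omegaGL_le_decompositionStabilizer hQ hn (hu.isOrthogonalMDecomposition h2 hD _).decomp.decomp

/-- The cases in odd dimension at least seven. -/
theorem odd_cases (hQ : (polarBilin Q).Nondegenerate) (hodd : Odd (Fintype.card F)) (hn : 7 ≤ Fintype.card ι)
    (ho : Odd (Fintype.card ι)) (hrat : ∀ (F₁ : Subfield F) (u : ι → F), RatVec F₁ u → Q u ∈ F₁)
    (hH : IsMaximalIn (omegaGL ⇑Q) H)
    (hstr : (∃ M, OrthMember (⇑Q) M ∧ H ≤ M) ∨ InOrthogonalResidualClass H) :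
    (∃ W : Submodule F (ι → F), W ≠ ⊥ ∧ IsTotallySingularQuad (⇑Q) W ∧
      H = subspaceStabilizer W ⊓ omegaGL ⇑Q) ∨
    SubEven (⇑Q) H ∨
    (∃ (t k : ℕ) (D : Fin t → Submodule F (ι → F)), (1 < k ∨ (Fintype.card F).Prime) ∧ 2 ≤ t ∧ 0 < k ∧
      Fintype.card ι = t * k ∧
      IsOrthogonalMDecomposition (⇑Q) k D ∧ H = decompositionStabilizer D ⊓ omegaGL ⇑Q) ∨
    (∃ (r : ℕ) (K : Subalgebra F (Matrix ι ι F)), r.Prime ∧ Fintype.card ι ≠ r ∧ r ∣ Fintype.card ι ∧
      IsFieldSubalgebra r K ∧ IsSelfAdjointFor (QuadraticMap.polar ⇑Q) K ∧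
      H = subalgebraNormalizer K ⊓ omegaGL ⇑Q) ∨
    (∃ (n₁ n₂ : ℕ), 3 ≤ n₁ ∧ n₁ < n₂ ∧ Fintype.card ι = n₁ * n₂) ∨
    (∃ (F₀ : Subfield F) (r : ℕ) (P : Matrix.GeneralLinearGroup ι F), r.Prime ∧
      Fintype.card F = Nat.card F₀ ^ r ∧ IsQuadFormRationalStructure (⇑Q) F₀ P ∧
      H = subfieldSubgroup F₀ P ⊓ omegaGL ⇑Q) ∨
    (∃ (k t : ℕ) (e : ι ≃ (Fin t → Fin k)) (P : Matrix.GeneralLinearGroup ι F)
      (f₁ : (Fin k → F) → (Fin k → F) → F), 3 ≤ k ∧ 2 ≤ t ∧ Fintype.card ι = k ^ t ∧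
      ¬ (Fintype.card F = 3 ∧ k = 3) ∧ IsSymmetricForm f₁ ∧
      IsTensorPowerFormStructure id (QuadraticMap.polar ⇑Q) f₁ e P ∧
      H = tensorWreathSubgroup k t e P ⊓ omegaGL ⇑Q) ∨
    InOrthogonalResidualClass H := by
  have : Nonempty ι := Fintype.card_pos_iff.1 (by omega)
  rcases hstr with ⟨M, hM, hle⟩ | h
  swap
  · exact Or.inr (Or.inr (Or.inr (Or.inr (Or.inr (Or.inr (Or.inr h))))))
  have hnot := AschCases.orthMember_not_le' hQ hn hM
  have hHM := eq_inf hH hle hnot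
  rcases hM with ⟨W, h1, h2, rfl⟩ | ⟨W, h1, h2, h3, rfl⟩ | ⟨v, h0, -, rfl⟩ | ⟨t, k, D, h0, h1, rfl⟩ |
    ⟨k, D, h1, h2, h3, rfl⟩ | ⟨r, K, h1, h2, h3, h4, rfl⟩ | ⟨K, h1, h2, -, -, rfl⟩ |
    ⟨n₁, n₂, e', P, f₁, f₂, h1, h2, h3, h4, h5, h6, rfl⟩ | ⟨n₁, n₂, e', P, f₁, f₂, h1, h2, h3, h4, h5, h6, rfl⟩ |
    ⟨F₀, r, P, ζ, h1, h2, h3, h4, rfl⟩ | ⟨R, p, k, h1, h2, h3, h4, h5, h6, -, -, -, h7, rfl⟩ |
    ⟨k, t, e', P, f₁, h1, h2, h3, h4, h5, h6, rfl⟩ | ⟨k, t, e', P, f₁, h1, -, h3, h4, h5, rfl⟩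
  · exact Or.inl ⟨W, h1, h2, hHM⟩
  · exact Or.inr (Or.inl (sub_even hQ hodd hn ho hH h1 h2 h3 hHM))
  · exact absurd hodd h0
  · exact Or.inr (Or.inr (Or.inl ⟨t, k, D, h0, h1.decomp.decomp.two_le, h1.decomp.decomp.pos,
      OCase.card_eq_of_decomp h1.decomp.decomp, h1, hHM⟩))
  · exfalso
    rw [← h1] at ho
    exact (Nat.not_odd_iff_even.2 (even_two_mul k)) ho
  · exact Or.inr (Or.inr (Or.inr (Or.inl ⟨r, K, h1, h2, AschCases.dvd_card_of_isFieldSubalgebra h3, h3, h4, hHM⟩)))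
  · exfalso
    have := AschCases.dvd_card_of_isFieldSubalgebra h1
    exact (Nat.not_odd_iff_even.2 (even_iff_two_dvd.2 this)) ho
  · exact Or.inr (Or.inr (Or.inr (Or.inr (Or.inl ⟨n₁, n₂, h2, h3, by simpa using Fintype.card_congr e'⟩))))
  · exfalso
    have e1 := even_card_of_isSymplecticForm h3
    rw [Fintype.card_fin] at e1
    have e2 : Fintype.card ι = n₁ * n₂ := by simpa using Fintype.card_congr e'
    rw [e2] at ho
    exact (Nat.not_odd_iff_even.2 (e1.mul_right n₂)) ho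
  · obtain ⟨P', a1, a2⟩ := exists_rational_one hodd ho (isNondegenerateQuadraticForm_coe hQ) hrat h1 h2 h3 h4
    exact Or.inr (Or.inr (Or.inr (Or.inr (Or.inr (Or.inl ⟨F₀, r, P', h1, h2, a1, by rw [a2]; exact hHM⟩)))))
  · exfalso
    rw [h7] at ho hn
    rcases Nat.eq_zero_or_pos k with hk | hk
    · rw [hk] at hn; omega
    · exact (Nat.not_odd_iff_even.2 (even_two.pow_of_ne_zero (by omega))) ho
  · exact Or.inr (Or.inr (Or.inr (Or.inr (Or.inr (Or.inr (Or.inl ⟨k, t, e', P, f₁, h2, h3,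
      by simpa using Fintype.card_congr e', h4, h5, h6, hHM⟩))))))
  · exfalso
    have e1 := even_card_of_isSymplecticForm h3
    rw [Fintype.card_fin] at e1
    have e2 : Fintype.card ι = k ^ t := by simpa using Fintype.card_congr e'
    rw [e2] at ho
    exact (Nat.not_odd_iff_even.2 (e1.pow_of_ne_zero (by omega))) ho

end Cfsg.Agent.OrthOdd
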