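import Mathlib
import Cfsg.Agent.AschCases.OrthOdd.Main

set_option autoImplicit false
set_option linter.unusedSectionVars false

/-!
Dimensions 7, 9, 11.
-/

namespace Cfsg.Agent.OrthOdd

open QuadraticMap Module Cfsg.Geo Cfsg.Agent.Asch Cfsg.Agent.Orth Cfsg.Agent.OCase
open scoped Matrix

variable {F : Type*} [Field F] [Fintype F]

/-- the structure theorem for a subgroup, as a property -/
def OrthStr (m : ℕ) (F : Type*) [Field F] [Fintype F]
    (H : Subgroup (Matrix.GeneralLinearGroup (Unit ⊕ (Fin m ⊕ Fin m)) F)) : Prop :=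
  (∃ M, OrthMember (quadFormOdd m F) M ∧ H ≤ M) ∨ InOrthogonalResidualClass H

theorem card_idx (m : ℕ) : Fintype.card (Unit ⊕ (Fin m ⊕ Fin m)) = 2 * m + 1 := by
  simp; ring

theorem three_prime_card (hodd : Odd (Fintype.card F)) (h : ¬ 5 ≤ Fintype.card F) : Fintype.card F = 3 := by
  have h1 : 1 < Fintype.card F := Fintype.one_lt_card
  obtain ⟨k, hk⟩ := hodd
  omega

/-- what remains for prime dimension at least seven -/
theorem prime_cases {m n : ℕ} (hn : 2 * m + 1 = n) (hp : n.Prime) (h7 : 7 ≤ n) (hodd : Odd (Fintype.card F))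
    (H : Subgroup (Matrix.GeneralLinearGroup (Unit ⊕ (Fin m ⊕ Fin m)) F))
    (hH : IsMaximalIn (omegaGL (quadFormOdd m F)) H) (hstr : OrthStr m F H) :
    (∃ W : Submodule F (Unit ⊕ (Fin m ⊕ Fin m) → F), W ≠ ⊥ ∧ IsTotallySingularQuad (quadFormOdd m F) W ∧
      H = subspaceStabilizer W ⊓ omegaGL (quadFormOdd m F)) ∨
    (∃ W : Submodule F (Unit ⊕ (Fin m ⊕ Fin m) → F), W ≠ ⊥ ∧ Even (finrank F W) ∧
      IsNondegenerateOn (QuadraticMap.polar (quadFormOdd m F)) W ∧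
      ¬ (Fintype.card F = 3 ∧ finrank F W = 2 ∧ IsPlusTypeOn (quadFormOdd m F) W) ∧
      H = subspaceStabilizer W ⊓ omegaGL (quadFormOdd m F)) ∨
    ((Fintype.card F).Prime ∧ ∃ D : Fin n → Submodule F (Unit ⊕ (Fin m ⊕ Fin m) → F),
      IsOrthogonalMDecomposition (quadFormOdd m F) 1 D ∧
      H = decompositionStabilizer D ⊓ omegaGL (quadFormOdd m F)) ∨
    (∃ (F₀ : Subfield F) (r : ℕ) (P : Matrix.GeneralLinearGroup (Unit ⊕ (Fin m ⊕ Fin m)) F), r.Prime ∧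
      Fintype.card F = Nat.card F₀ ^ r ∧ IsQuadFormRationalStructure (quadFormOdd m F) F₀ P ∧
      H = subfieldSubgroup F₀ P ⊓ omegaGL (quadFormOdd m F)) ∨
    InOrthogonalResidualClass H := by
  have hc : Fintype.card (Unit ⊕ (Fin m ⊕ Fin m)) = n := by rw [card_idx, hn]
  have h2 : (2 : F) ≠ 0 := AschCases.two_ne_zero_of_odd_card hodd
  rcases odd_cases (Q := qfOdd m F) (qfOdd_nondegenerate m F h2) hodd (by rw [hc]; exact h7)
    (by rw [hc, ← hn]; exact odd_two_mul_add_one m) (fun F₁ u hu => quadFormOdd_mem m F₁ u hu) hH hstr with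
    h | h | ⟨t, k, D, h0, ht, hk, hcard, hD, hHD⟩ | ⟨r, K, hr, hne, hdvd, -, -, -⟩ | ⟨n₁, n₂, h3, h4, h5⟩ | h |
    ⟨k, t, e, P, f₁, h3, h4, h5, -, -, -, -⟩ | h
  · exact Or.inl h
  · exact Or.inr (Or.inl h)
  · rw [hc] at hcard
    have ht' : t = n := by
      rcases (Nat.dvd_prime hp).1 (Dvd.intro k hcard.symm) with h | h
      · omega
      · exact h
    subst ht'
    have hk1 : k = 1 := by
      have : t * 1 = t * k := by omega
      exact (Nat.eq_of_mul_eq_mul_left (by omega) this).symm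
    subst hk1
    exact Or.inr (Or.inr (Or.inl ⟨h0.resolve_left (by norm_num), D, hD, hHD⟩))
  · exfalso
    rw [hc] at hne hdvd
    rcases (Nat.dvd_prime hp).1 hdvd with h | h
    · exact hr.one_lt.ne' h
    · exact hne h.symm
  · exfalso
    rw [hc] at h5
    rcases (Nat.dvd_prime hp).1 (Dvd.intro n₂ h5.symm) with h | h
    · omega
    · rw [h] at h5
      nlinarith
  · exact Or.inr (Or.inr (Or.inr (Or.inl h)))
  · exfalso
    rw [hc] at h5
    rw [h5] at hp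
    exact Nat.Prime.not_prime_pow (by omega) hp
  · exact Or.inr (Or.inr (Or.inr (Or.inr h)))

/-- dimension nine -/
theorem nine_cases (hodd : Odd (Fintype.card F))
    (H : Subgroup (Matrix.GeneralLinearGroup (Unit ⊕ (Fin 4 ⊕ Fin 4)) F))
    (hH : IsMaximalIn (omegaGL (quadFormOdd 4 F)) H) (hstr : OrthStr 4 F H) :
    (∃ W : Submodule F (Unit ⊕ (Fin 4 ⊕ Fin 4) → F), W ≠ ⊥ ∧ IsTotallySingularQuad (quadFormOdd 4 F) W ∧
      H = subspaceStabilizer W ⊓ omegaGL (quadFormOdd 4 F)) ∨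
    (∃ W : Submodule F (Unit ⊕ (Fin 4 ⊕ Fin 4) → F), W ≠ ⊥ ∧ Even (finrank F W) ∧
      IsNondegenerateOn (QuadraticMap.polar (quadFormOdd 4 F)) W ∧
      ¬ (Fintype.card F = 3 ∧ finrank F W = 2 ∧ IsPlusTypeOn (quadFormOdd 4 F) W) ∧
      H = subspaceStabilizer W ⊓ omegaGL (quadFormOdd 4 F)) ∨
    ((Fintype.card F).Prime ∧ ∃ D : Fin 9 → Submodule F (Unit ⊕ (Fin 4 ⊕ Fin 4) → F),
      IsOrthogonalMDecomposition (quadFormOdd 4 F) 1 D ∧
      H = decompositionStabilizer D ⊓ omegaGL (quadFormOdd 4 F)) ∨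
    (5 ≤ Fintype.card F ∧ ∃ D : Fin 3 → Submodule F (Unit ⊕ (Fin 4 ⊕ Fin 4) → F),
      IsOrthogonalMDecomposition (quadFormOdd 4 F) 3 D ∧
      H = decompositionStabilizer D ⊓ omegaGL (quadFormOdd 4 F)) ∨
    (∃ K : Subalgebra F (Matrix (Unit ⊕ (Fin 4 ⊕ Fin 4)) (Unit ⊕ (Fin 4 ⊕ Fin 4)) F), IsFieldSubalgebra 3 K ∧
      IsSelfAdjointFor (QuadraticMap.polar (quadFormOdd 4 F)) K ∧
      H = subalgebraNormalizer K ⊓ omegaGL (quadFormOdd 4 F)) ∨
    (∃ (F₀ : Subfield F) (r : ℕ) (P : Matrix.GeneralLinearGroup (Unit ⊕ (Fin 4 ⊕ Fin 4)) F), r.Prime ∧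
      Fintype.card F = Nat.card F₀ ^ r ∧ IsQuadFormRationalStructure (quadFormOdd 4 F) F₀ P ∧
      H = subfieldSubgroup F₀ P ⊓ omegaGL (quadFormOdd 4 F)) ∨
    (5 ≤ Fintype.card F ∧ ∃ (e : (Unit ⊕ (Fin 4 ⊕ Fin 4)) ≃ (Fin 2 → Fin 3))
      (P : Matrix.GeneralLinearGroup (Unit ⊕ (Fin 4 ⊕ Fin 4)) F) (f₁ : (Fin 3 → F) → (Fin 3 → F) → F),
      IsSymmetricForm f₁ ∧ IsTensorPowerFormStructure id (QuadraticMap.polar (quadFormOdd 4 F)) f₁ e P ∧
      H = tensorWreathSubgroup 3 2 e P ⊓ omegaGL (quadFormOdd 4 F)) ∨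
    InOrthogonalResidualClass H := by
  have hc : Fintype.card (Unit ⊕ (Fin 4 ⊕ Fin 4)) = 9 := by rw [card_idx]
  have h2 : (2 : F) ≠ 0 := AschCases.two_ne_zero_of_odd_card hodd
  rcases odd_cases (Q := qfOdd 4 F) (qfOdd_nondegenerate 4 F h2) hodd (by rw [hc]; norm_num)
    (by rw [hc]; decide) (fun F₁ u hu => quadFormOdd_mem 4 F₁ u hu) hH hstr with
    h | h | ⟨t, k, D, h0, ht, hk, hcard, hD, hHD⟩ | ⟨r, K, hr, hne, hdvd, h3, h4, h5⟩ | ⟨n₁, n₂, h3, h4, h5⟩ | h |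
    ⟨k, t, e, P, f₁, h3, h4, h5, h6, h7, h8, h9⟩ | h
  · exact Or.inl h
  · exact Or.inr (Or.inl h)
  · rw [hc] at hcard
    have hcs : (t = 9 ∧ k = 1) ∨ (t = 3 ∧ k = 3) := by
      have h10 : t ∣ 9 := Dvd.intro k hcard.symm
      have h11 : t ≤ 9 := Nat.le_of_dvd (by norm_num) h10
      interval_cases t <;> omega
    rcases hcs with ⟨rfl, rfl⟩ | ⟨rfl, rfl⟩
    · exact Or.inr (Or.inr (Or.inl ⟨h0.resolve_left (by norm_num), D, hD, hHD⟩))
    · by_cases h5 : 5 ≤ Fintype.card F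
      · exact Or.inr (Or.inr (Or.inr (Or.inl ⟨h5, D, hD, hHD⟩)))
      · have hq := three_prime_card hodd h5
        obtain ⟨D', hD', hHD'⟩ := three_spaces (Q := qfOdd 4 F) (qfOdd_nondegenerate 4 F h2)
          (by rw [hc]; norm_num) hq hH hD hHD (N := 9) rfl
        exact Or.inr (Or.inr (Or.inl ⟨by rw [hq]; exact Nat.prime_three, D', hD', hHD'⟩))
  · rw [hc] at hne hdvd
    have hr3 : r = 3 := by
      have : r ∣ 3 := hr.dvd_of_dvd_pow (m := 3) (n := 2) (by norm_num; exact hdvd)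
      rcases (Nat.dvd_prime Nat.prime_three).1 this with h | h
      · exact absurd h hr.one_lt.ne'
      · exact h
    subst hr3
    exact Or.inr (Or.inr (Or.inr (Or.inr (Or.inl ⟨K, h3, h4, h5⟩))))
  · exfalso
    rw [hc] at h5
    have : 3 * 4 ≤ n₁ * n₂ := Nat.mul_le_mul h3 (by omega)
    omega
  · exact Or.inr (Or.inr (Or.inr (Or.inr (Or.inr (Or.inl h)))))
  · rw [hc] at h5
    have hcs : k = 3 ∧ t = 2 := by
      have hk : k ≤ 3 := by
        by_contra hcon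
        have h10 : 4 ^ 2 ≤ k ^ t := (Nat.pow_le_pow_left (by omega) 2).trans (Nat.pow_le_pow_right (by omega) h4)
        omega
      have hk3 : k = 3 := by omega
      subst hk3
      refine ⟨rfl, ?_⟩
      have : (3 : ℕ) ^ 2 = 3 ^ t := by rw [← h5]; norm_num
      exact (Nat.pow_right_injective (show 2 ≤ 3 by norm_num) this).symm
    obtain ⟨rfl, rfl⟩ := hcs
    have h5' : 5 ≤ Fintype.card F := by
      by_contra hcon
      exact h6 ⟨three_prime_card hodd hcon, rfl⟩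
    exact Or.inr (Or.inr (Or.inr (Or.inr (Or.inr (Or.inr (Or.inl ⟨h5', e, P, f₁, h7, h8, h9⟩))))))
  · exact Or.inr (Or.inr (Or.inr (Or.inr (Or.inr (Or.inr (Or.inr h))))))

end Cfsg.Agent.OrthOdd
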