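import Mathlib
import Cfsg.Agent.AschCases.OrthOdd.Rows
import Cfsg.Agent.Asch.OrthMain

set_option autoImplicit false
set_option linter.unusedSectionVars false

/-!
The structure theorem for the standard form in odd dimension.
-/

namespace Cfsg.Agent.OrthOdd

open QuadraticMap Module Cfsg.Geo Cfsg.Agent.Asch Cfsg.Agent.Orth Cfsg.Agent.OCase
open scoped Matrix

variable {F : Type*} [Field F] [Fintype F]

theorem orthStr {m : ℕ} (hm : 1 ≤ m) (hodd : Odd (Fintype.card F))
    {H : Subgroup (Matrix.GeneralLinearGroup (Unit ⊕ (Fin m ⊕ Fin m)) F)} (hH : H ≤ omegaGL (quadFormOdd m F)) :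
    OrthStr m F H := by
  have h2 : (2 : F) ≠ 0 := AschCases.two_ne_zero_of_odd_card hodd
  refine orthogonal_structure (by rw [card_idx]; omega)
    (isNondegenerateQuadraticForm_coe (q := qfOdd m F) (qfOdd_nondegenerate m F h2)) ?_ ?_
  · intro _ a ha _ h
    rw [card_idx] at h
    have h3 : Even (2 * m + 1) := by rw [h]; exact ha.mul_left a
    exact (Nat.not_even_iff_odd.2 (odd_two_mul_add_one m)) h3
  · rintro _ ⟨g, hg, rfl⟩ v
    obtain ⟨h, -, hx⟩ := (mem_omegaGL_iff (qfOdd m F) g).1 (hH hg)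
    rw [hx]
    exact OGrp_q h v

end Cfsg.Agent.OrthOdd
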